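import Cfsg.Agent.H283.LB.Proj
import Cfsg.Agent.H656.OverPrincipal
import Cfsg.Agent.Blocks.CliffordCentral
import Cfsg.Agent.H439.CC.Defs
import Cfsg.Agent.Characters.Brauer

/-!
# S4879: from the normal subgroup `N` to `G` (helper970)

* `mu_over` : `χ` over `θ`, the multiplicity of `1_P^N` in `θ^g` independent of `g`: `θ(1) ⟨χ, 1_P⟩ = χ(1) ⟨θ, 1_P⟩`.
* `le_blockRank_over` : `θ j ∈ B₀(N)`, `P i` of order prime to `p`, the matrix `⟨θ j, 1_{P i}^N⟩` nonsingular and the
  multiplicities invariant under `G`: `n ≤ l(B₀(G))`.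
-/

set_option autoImplicit false

namespace Cfsg.Agent.H970.LB

open Cfsg Cfsg.Agent.Characters.Core Cfsg.Agent.H283.LB
open Cfsg.Agent.H439.CC (mu)
open scoped ComplexConjugate

universe u

variable {G : Type u} [Group G]

/-- the conjugate of a function on the normal subgroup `N` -/
def cj (N : Subgroup G) [hN : N.Normal] (g : G) (f : N → ℂ) : N → ℂ :=
  fun n => f ⟨g * n * g⁻¹, hN.conj_mem n n.2 g⟩

theorem mu_eq_sum {H : Type*} [Group H] (P : Subgroup H) [Fintype P] (φ : H → ℂ) :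
    mu P φ = (Nat.card P : ℂ)⁻¹ * ∑ x : P, φ x := by
  unfold mu
  rw [finsum_eq_sum_of_fintype]

/-- **Multiplicities over a normal subgroup.** -/
theorem mu_over [Fintype G] (N : Subgroup G) [hN : N.Normal] [Fintype N] (χ : IrrCharacter G) (θ : IrrCharacter N)
    (hover : classInner (fun n : N => (χ : G → ℂ) n) (θ : N → ℂ) ≠ 0) (P : Subgroup N)
    (hinv : ∀ g : G, mu P (cj N g (θ : N → ℂ)) = mu P (θ : N → ℂ)) :
    mu P (fun n : N => (χ : G → ℂ) n) = (χ : G → ℂ) 1 / (θ : N → ℂ) 1 * mu P (θ : N → ℂ) := by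
  classical
  let ft := Fintype.ofFinite P
  have hP : (Nat.card P : ℂ) ≠ 0 := Nat.cast_ne_zero.2 Nat.card_pos.ne'
  have hG : (Fintype.card G : ℂ) ≠ 0 := Nat.cast_ne_zero.2 Fintype.card_ne_zero
  have hθ1 : (θ : N → ℂ) 1 ≠ 0 := isIrr_apply_one_ne_zero θ.2
  have hχ1 : (χ : G → ℂ) 1 ≠ 0 := isIrr_apply_one_ne_zero χ.2
  let F : N → ℂ := fun n => ∑ g : G, if (⟨g * n * g⁻¹, hN.conj_mem n n.2 g⟩ : N) ∈ P then (1 : ℂ) else 0
  have hF : ∀ (g : G) (n : N), F ⟨g * n * g⁻¹, hN.conj_mem n n.2 g⟩ = F n := by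
    intro g n
    refine Fintype.sum_equiv (Equiv.mulRight g) _ _ fun x => ?_
    simp only [Equiv.coe_mulRight]
    have h1 : (⟨x * ((⟨g * n * g⁻¹, hN.conj_mem n n.2 g⟩ : N) : G) * x⁻¹,
        hN.conj_mem _ (⟨g * n * g⁻¹, hN.conj_mem n n.2 g⟩ : N).2 x⟩ : N) =
        ⟨x * g * n * (x * g)⁻¹, hN.conj_mem n n.2 (x * g)⟩ := by
      apply Subtype.ext
      simp only [mul_inv_rev, mul_assoc]
    exact if_congr (by rw [h1]) rfl rfl
  have hsum : ∀ φ : N → ℂ, ∑ n : N, F n * φ n =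
      ∑ g : G, (Nat.card P : ℂ) * mu P (cj N g⁻¹ φ) := by
    intro φ
    have h1 : ∑ n : N, F n * φ n = ∑ g : G, ∑ n : N,
        if (⟨g * n * g⁻¹, hN.conj_mem n n.2 g⟩ : N) ∈ P then φ n else 0 := by
      rw [Finset.sum_comm]
      refine Finset.sum_congr rfl fun n _ => ?_
      rw [Finset.sum_mul]
      refine Finset.sum_congr rfl fun g _ => ?_
      split_ifs
      · rw [one_mul]
      · rw [zero_mul]
    rw [h1]
    refine Finset.sum_congr rfl fun g _ => ?_
    rw [mu_eq_sum, mul_inv_cancel_left₀ hP]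
    symm
    have h2 : ∑ x : P, cj N g⁻¹ φ x = ∑ x : N, if x ∈ P then cj N g⁻¹ φ x else 0 := by
      rw [← Finset.sum_filter]
      rw [Finset.sum_subtype (p := fun x => x ∈ P) _ (by simp)]
    rw [h2]
    refine Fintype.sum_equiv (MulAut.conjNormal g⁻¹ : MulAut N).toEquiv _ _ fun x => ?_
    have e1 : ((MulAut.conjNormal g⁻¹ : MulAut N).toEquiv x : N) =
        ⟨g⁻¹ * x * g⁻¹⁻¹, hN.conj_mem x x.2 g⁻¹⟩ := by
      apply Subtype.ext
      simp
    rw [e1]
    have e2 : (⟨g * ((⟨g⁻¹ * x * g⁻¹⁻¹, hN.conj_mem x x.2 g⁻¹⟩ : N) : G) * g⁻¹,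
        hN.conj_mem _ (⟨g⁻¹ * x * g⁻¹⁻¹, hN.conj_mem x x.2 g⁻¹⟩ : N).2 g⟩ : N) = x := by
      apply Subtype.ext
      simp [mul_assoc]
    rw [e2]
    rfl
  have key := Blocks.CliffordCentral.sum_div_eq_of_constituent N χ θ hover F hF
  rw [hsum (fun n : N => (χ : G → ℂ) n), hsum (θ : N → ℂ)] at key
  have hA : ∑ g : G, (Nat.card P : ℂ) * mu P (cj N g⁻¹ (fun n : N => (χ : G → ℂ) n)) =
      (Fintype.card G : ℂ) * ((Nat.card P : ℂ) * mu P (fun n : N => (χ : G → ℂ) n)) := by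
    have h3 : ∀ g : G, cj N g⁻¹ (fun n : N => (χ : G → ℂ) n) = fun n : N => (χ : G → ℂ) n := by
      intro g
      funext n
      exact isIrr_isClassFunction χ.2 (n : G) g⁻¹
    rw [Finset.sum_congr rfl fun g _ => by rw [h3 g], Finset.sum_const, Finset.card_univ, nsmul_eq_mul]
  have hB : ∑ g : G, (Nat.card P : ℂ) * mu P (cj N g⁻¹ (θ : N → ℂ)) =
      (Fintype.card G : ℂ) * ((Nat.card P : ℂ) * mu P (θ : N → ℂ)) := by
    rw [Finset.sum_congr rfl fun g _ => by rw [hinv g⁻¹], Finset.sum_const, Finset.card_univ, nsmul_eq_mul]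
  rw [hA, hB] at key
  rw [div_eq_div_iff hχ1 hθ1] at key
  have h4 : (Fintype.card G : ℂ) * (Nat.card P : ℂ) * (mu P (fun n : N => (χ : G → ℂ) n) * (θ : N → ℂ) 1) =
      (Fintype.card G : ℂ) * (Nat.card P : ℂ) * (mu P (θ : N → ℂ) * (χ : G → ℂ) 1) := by
    linear_combination key
  have h5 := mul_left_cancel₀ (mul_ne_zero hG hP) h4
  rw [div_mul_eq_mul_div, eq_div_iff hθ1, h5, mul_comm]

/-- the function induced from the image of `P` -/
noncomputable def psi [Fintype G] (N : Subgroup G) (P : Subgroup N) : G → ℂ :=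
  indFun (P.map N.subtype) fun _ => 1

theorem classInner_psi [Fintype G] (N : Subgroup G) (P : Subgroup N) {χ : G → ℂ} (hχ : IsIrrCharacter G χ) :
    classInner χ (psi N P) = mu P (fun n : N => χ n) := by
  classical
  let ft := Fintype.ofFinite (P.map N.subtype)
  let fp := Fintype.ofFinite P
  have h1 : classInner (psi N P) χ = classInner (fun _ => (1 : ℂ)) (fun h : P.map N.subtype => χ h) :=
    Characters.Brauer.classInner_indFun (P.map N.subtype) ft (fun _ => 1) χ (isIrr_isClassFunction hχ)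
  rw [← conj_classInner, h1]
  unfold classInner
  rw [map_mul, map_inv₀, Complex.conj_natCast, map_sum, mu_eq_sum]
  have hc : Nat.card (P.map N.subtype) = Nat.card P :=
    Nat.card_congr (P.equivMapOfInjective N.subtype N.subtype_injective).toEquiv.symm
  rw [hc]
  congr 1
  symm
  refine Fintype.sum_equiv (P.equivMapOfInjective N.subtype N.subtype_injective).toEquiv _ _ fun x => ?_
  rw [map_mul, Complex.conj_conj, map_one, one_mul]
  rfl

/-- **The rank bound for an overgroup.** -/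
theorem le_blockRank_over {p : ℕ} [Fact p.Prime] [Finite G] {M : Ideal AlgInt} (hM : IsPModular p M)
    (N : Subgroup G) [N.Normal] {ι : Type*} [Fintype ι] [DecidableEq ι] (P : ι → Subgroup N)
    (hP : ∀ i, ¬ p ∣ Nat.card (P i)) (θ : ι → IrrCharacter N) (hθ : ∀ j, θ j ∈ principalBlock M N)
    (hinv : ∀ (g : G) (i j : ι), mu (P i) (cj N g (θ j : N → ℂ)) = mu (P i) (θ j : N → ℂ))
    (hdet : (Matrix.of fun i j => mu (P i) (θ j : N → ℂ)).det ≠ 0) :
    Fintype.card ι ≤ blockRank p (principalBlock M G) := by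
  classical
  let fG := Fintype.ofFinite G
  let fN := Fintype.ofFinite N
  obtain ⟨S⟩ : Nonempty (Sylow p G) := inferInstance
  choose χ hχ hov using fun j => H656.OverPrincipal.exists_over hM N S
    (by rw [Subgroup.normalizer_eq_top]; exact le_top) (θ j) (hθ j)
  refine le_blockRank_of_det (fun i => psi N (P i)) (fun i g hg => indFun_eq_zero ?_ _ hg) χ hχ ?_
  · have hc : Nat.card ((P i).map N.subtype) = Nat.card (P i) :=
      Nat.card_congr ((P i).equivMapOfInjective N.subtype N.subtype_injective).toEquiv.symm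
    rw [hc]
    exact hP i
  · have h1 : (Matrix.of fun i j => classInner (χ j : G → ℂ) (psi N (P i))) =
        (Matrix.of fun i j => mu (P i) (θ j : N → ℂ)) *
          Matrix.diagonal fun j => (χ j : G → ℂ) 1 / (θ j : N → ℂ) 1 := by
      ext i j
      rw [Matrix.mul_diagonal, Matrix.of_apply, Matrix.of_apply, classInner_psi N (P i) (χ j).2,
        mu_over N (χ j) (θ j) (hov j) (P i) (fun g => hinv g i j), mul_comm]
    rw [h1, Matrix.det_mul, Matrix.det_diagonal]
    refine mul_ne_zero hdet (Finset.prod_ne_zero_iff.2 fun j _ => ?_)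
    exact div_ne_zero (isIrr_apply_one_ne_zero (χ j).2) (isIrr_apply_one_ne_zero (θ j).2)

end Cfsg.Agent.H970.LB
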